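import Mathlib
import Cfsg.Prelude.Def_Balance
import Cfsg.Agent.Comp2.Balance2
import Cfsg.Agent.BG.AmbHall2
import Cfsg.Agent.BG.AmbCore
import Cfsg.Agent.Core.PConstrained

/-! The extended `2`-layer. -/

namespace Cfsg.Agent.Comp2

open Cfsg Subgroup Cfsg.Agent.BG
open scoped Pointwise commutatorElement

variable {X : Type*} [Group X] [Finite X]

theorem ext_def : extendedTwoLayer X = pLayer 2 X ⊔ oddCore X ⊔
    ⨆ T : Sylow 2 ↥(pLayer 2 X ⊔ pPrimePCore 2 X), piCoreOf {2}ᶜ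
      𝐂((T : Subgroup ↥(pLayer 2 X ⊔ pPrimePCore 2 X)).map (pLayer 2 X ⊔ pPrimePCore 2 X).subtype) := by
  simp only [Amb.piCoreOf_compl_eq Nat.prime_two]
  rfl

theorem pPrimePCore_le_sup {p : ℕ} [Fact p.Prime] {N T : Subgroup X} (hT : IsSylowOf p T N)
    (hN : pPrimePCore p X ≤ N) : pPrimePCore p X ≤ pPrimeCore p X ⊔ T := by
  have h1 := Amb.hall_inf_of_le_normalizer hT hN le_normalizer_of_normal
  have h2 : IsPiHallOf {p}ᶜ (pPrimeCore p X) (pPrimePCore p X) := by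
    obtain ⟨n, hn⟩ := Core.relIndex_pPrimePCore (G := X) p
    refine Amb.hall_mk (Core.pPrimeCore_le_pPrimePCore p) ((Amb.pi_compl_singleton Fact.out).2
      ((Nat.Prime.coprime_iff_not_dvd Fact.out).1 (pPrimeCore_coprime p).symm)) ?_
    rw [compl_compl, hn]
    exact Amb.piNat_singleton_pow Fact.out n
  rw [← Amb.hall_sup_hall h1 h2]
  exact sup_le (inf_le_left.trans le_sup_right) le_sup_left

theorem ext_frattini {T : Subgroup X} (hT : IsSylowOf 2 T (pLayer 2 X ⊔ pPrimePCore 2 X)) :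
    (pLayer 2 X ⊔ oddCore X) ⊔ 𝐍(T) = ⊤ := by
  have h := Amb.frattini_sylow_sup hT le_top le_normalizer_of_normal
  rw [eq_top_iff, ← h]
  refine sup_le (sup_le (le_sup_left.trans le_sup_left) ((pPrimePCore_le_sup hT le_sup_right).trans
    (sup_le_sup le_sup_right le_normalizer))) (inf_le_right.trans le_sup_right)

theorem ext_sup_normal {T : Subgroup X} (hT : IsSylowOf 2 T (pLayer 2 X ⊔ pPrimePCore 2 X)) :
    (pLayer 2 X ⊔ oddCore X ⊔ piCoreOf {2}ᶜ 𝐂(T)).Normal := by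
  rw [← normalizer_eq_top_iff, eq_top_iff, ← ext_frattini hT]
  exact Amb.sup_le_norm_sup le_normalizer_of_normal
    (Amb.le_norm_piCoreOf_of _ (Amb.norm_le_norm_cent T))

theorem ext_eq {T : Subgroup X} (hT : IsSylowOf 2 T (pLayer 2 X ⊔ pPrimePCore 2 X)) :
    extendedTwoLayer X = pLayer 2 X ⊔ oddCore X ⊔ piCoreOf {2}ᶜ 𝐂(T) := by
  rw [ext_def]
  refine le_antisymm (sup_le le_sup_left (iSup_le fun T' => ?_)) (sup_le_sup_left ?_ _)
  · obtain ⟨m, -, hm⟩ := Amb.sylow_conj hT (Amb.isSylowOf_sylow T')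
    haveI := ext_sup_normal hT
    rw [hm, ← Amb.conj_centralizer, Amb.piCoreOf_conj]
    exact Amb.conj_le_of_mem_normalizer (le_normalizer_of_normal (mem_top m)) le_sup_right
  · obtain ⟨T', rfl⟩ := Amb.exists_sylow_of_isSylowOf hT
    exact le_iSup (fun T : Sylow 2 ↥(pLayer 2 X ⊔ pPrimePCore 2 X) => piCoreOf {2}ᶜ
      𝐂((T : Subgroup ↥(pLayer 2 X ⊔ pPrimePCore 2 X)).map (pLayer 2 X ⊔ pPrimePCore 2 X).subtype)) T'

/-- An element centralizing a Sylow `p`-subgroup of a `p`-component normalizes it. -/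
theorem mem_norm_pComponent_of_cent_sylow {p : ℕ} [hp : Fact p.Prime] {K T : Subgroup X}
    (hK : IsPComponent p K) (hT : IsSylowOf p T K) {y : X} (hy : y ∈ 𝐂(T)) : y ∈ 𝐍(K) := by
  by_contra hn
  have h1 := pComponent_commutator_le_of_ne hK (pComponent_conj hK y)
    fun e => hn (map_conj_eq_iff.1 e.symm)
  have hTK : T ≤ K.map (MulAut.conj y).toMonoidHom :=
    (Amb.conj_eq_of_mem_centralizer hy).ge.trans (Amb.conj_mono y (Amb.hall_le hT))
  set f := QuotientGroup.mk' (pPrimeCore p X)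
  have hc := (pComponent_iff.1 hK).2.1
  have h2 : T.map f ≤ 𝐂(K.map f) := by
    rw [Amb.le_cent_iff_comm_eq_bot', ← map_commutator, Subgroup.map_eq_bot_iff, QuotientGroup.ker_mk']
    exact (commutator_mono le_rfl hTK).trans h1
  have h3 := dvd_relIndex_centralizer_of_perfect (p := p) (component_commutator_self hc)
    (dvd_card_of_subnormal_of_pPrimeCore_eq_bot (pPrimeCore_quotient_pPrimeCore p) hc.1
      (component_ne_bot hc))
  exact Amb.sylow_not_dvd hT ((h3.trans (relIndex_dvd_of_le_left _ h2)).trans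
    (relIndex_map_dvd f (Amb.hall_le hT)))

end Cfsg.Agent.Comp2
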